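import Cfsg.Agent.TransferThree23.Layers
import Cfsg.Prelude.Def_LocalEven
import Cfsg.Prelude.Def_ConjugacyFunctors

/-!
The largest characteristic subgroup of a `p`-group that is normal in all failing pushing-up members over it, and
its nontriviality.
-/

set_option autoImplicit false

open Cfsg
open scoped commutatorElement
open CfsgLib.PushingUp44

namespace CfsgLib.TransferThree23

universe u

/-- `y` acts quadratically on every chief factor inside `Q`. -/
def QuadOn {G : Type*} [Group G] (Q : Subgroup G) (y : G) : Prop :=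
  ∀ U W : Subgroup G, IsChiefFactor U W → U ≤ Q → ∀ u ∈ U, ⁅⁅u, y⁆, y⁆ ∈ W

/-- A group over the image of `B` in which no element of the image outside the core acts quadratically on all
chief factors inside the core. -/
structure Member (B : Type u) [Group B] where
  G : Type u
  [grp : Group G]
  [fin : Finite G]
  e : B →* G
  inj : Function.Injective e
  Q : Subgroup G
  V : Subgroup G
  q : ℕ
  Qn : Q.Normal
  Vn : V.Normal
  Q_le : Q ≤ e.range
  V_le : V ≤ Q
  commVQ : Q ≤ Subgroup.centralizer (V : Set G)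
  V_ne : V ≠ ⊥
  one_lt : 1 < q
  bound : ∀ a ∈ e.range, a ∉ Q → q ≤ (V ⊓ Subgroup.centralizer ({a} : Set G)).relIndex V
  card_le : Q.relIndex e.range ≤ q
  comm : ⁅V, e.range⁆ ≤ Subgroup.centralizer (e.range : Set G)
  root : Nat.card ↥⁅V, e.range⁆ ≤ q
  failing : ∀ y ∈ e.range, y ∉ Q → ¬ QuadOn Q y

attribute [instance] Member.grp Member.fin

/-- The same member over an isomorphic group. -/
def Member.comapEquiv {B R : Type u} [Group B] [Group R] (φ : B ≃* R) (m : Member R) : Member B :=
  have hr : (m.e.comp φ.toMonoidHom).range = m.e.range :=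
    MonoidHom.range_eq_map _ |>.trans (by
      rw [← Subgroup.map_map, Subgroup.map_top_of_surjective _ φ.surjective, ← MonoidHom.range_eq_map])
  { G := m.G
    e := m.e.comp φ.toMonoidHom
    inj := m.inj.comp φ.injective
    Q := m.Q
    V := m.V
    q := m.q
    Qn := m.Qn
    Vn := m.Vn
    Q_le := hr ▸ m.Q_le
    V_le := m.V_le
    commVQ := m.commVQ
    V_ne := m.V_ne
    one_lt := m.one_lt
    bound := hr ▸ m.bound
    card_le := hr ▸ m.card_le
    comm := hr ▸ m.comm
    root := hr ▸ m.root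
    failing := hr ▸ m.failing }

/-- The set of characteristic subgroups normal in all members. -/
def commonSet (B : Type u) [Group B] : Set (Subgroup B) :=
  {W | W.Characteristic ∧ ∀ m : Member B, (W.map m.e).Normal}

/-- The largest characteristic subgroup normal in all members. -/
def common (B : Type u) [Group B] : Subgroup B := sSup (commonSet B)

theorem common_normal {B : Type u} [Group B] (m : Member B) : ((common B).map m.e).Normal := by
  rw [common, sSup_eq_iSup', Subgroup.map_iSup]
  refine Subgroup.normalizer_eq_top_iff.1 (top_le_iff.1 fun g _ => mem_normalizer_of_cj_eq ?_)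
  rw [cj_iSup]
  refine iSup_congr fun W => ?_
  haveI := W.2.2 m
  exact cj_eq_of_le_normalizer (by rw [Subgroup.normalizer_eq_top_iff.2 (W.2.2 m)]; trivial)

theorem common_map {B R : Type u} [Group B] [Group R] (φ : B ≃* R) :
    (common B).map φ.toMonoidHom = common R := by
  have key : ∀ {B R : Type u} [Group B] [Group R] (φ : B ≃* R), (common B).map φ.toMonoidHom ≤ common R := by
    intro B R _ _ φ
    rw [common, sSup_eq_iSup', Subgroup.map_iSup]
    refine iSup_le fun ⟨W, hW, hWn⟩ => ?_
    refine le_sSup ⟨?_, fun m => ?_⟩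
    · dsimp only
      rw [Subgroup.characteristic_iff_map_eq]
      intro σ
      have h := Subgroup.characteristic_iff_map_eq.1 hW ((φ.trans σ).trans φ.symm)
      conv_rhs => rw [← h]
      rw [Subgroup.map_map, Subgroup.map_map]
      congr 1
      ext x; simp
    · rw [Subgroup.map_map]
      exact hWn (m.comapEquiv φ)
  refine le_antisymm (key φ) ?_
  have h := Subgroup.map_mono (f := φ.toMonoidHom) (key φ.symm)
  rwa [Subgroup.map_map, show φ.toMonoidHom.comp φ.symm.toMonoidHom = MonoidHom.id R by ext x; simp,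
    Subgroup.map_id] at h

section ambient

variable {B : Type u} [Group B] {ι : Type u} (m : ι → Member B)

/-- The extra coordinates of the ambient set. -/
def Coords (R : ∀ i, Set (m i).G) : Type u := ∀ i, ↥(R i)

variable (R : ∀ i, Set (m i).G)

/-- The left regular action of `B` on `B × L`. -/
def lamB (L : Type u) : B →* Equiv.Perm (B × L) where
  toFun b := (Equiv.mulLeft b).prodCongr (Equiv.refl L)
  map_one' := by ext x <;> simp
  map_mul' a b := by ext x <;> simp [mul_assoc]

theorem lamB_injective {L : Type u} [Nonempty L] : Function.Injective (lamB (B := B) L) := fun a b h => by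
  obtain ⟨l⟩ := ‹Nonempty L›
  simpa [lamB] using congrArg Prod.fst (Equiv.congr_fun h (1, l))

/-- An action of a group through a bijection with part of a product. -/
def actVia {G X L : Type u} [Group G] (ψ : X ≃ G × L) : G →* Equiv.Perm X where
  toFun g := ψ.trans (((Equiv.mulLeft g).prodCongr (Equiv.refl L)).trans ψ.symm)
  map_one' := by ext x; simp
  map_mul' a b := by
    refine Equiv.ext fun x => ψ.injective ?_
    simp [Prod.ext_iff, mul_assoc]

theorem actVia_injective {G X L : Type u} [Group G] [Nonempty X] (ψ : X ≃ G × L) :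
    Function.Injective (actVia ψ) := fun a b h => by
  obtain ⟨x⟩ := ‹Nonempty X›
  have h1 := congrArg (fun t => (ψ t).1) (Equiv.congr_fun h x)
  simpa [actVia] using h1

end ambient

/-- Every member embeds in one permutation group, compatibly. -/
theorem exists_ambient {B : Type u} [Group B] [Finite B] {ι : Type u} [Finite ι] (m : ι → Member B) :
    ∃ (Γ : Type u) (_ : Group Γ) (_ : Finite Γ) (lam : B →* Γ) (ρ : ∀ i, (m i).G →* Γ),
      Function.Injective lam ∧ (∀ i, Function.Injective (ρ i)) ∧ (∀ i b, ρ i ((m i).e b) = lam b) ∧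
      ∀ φ : MulAut B, ∃ σ : Γ, ∀ b, σ * lam b * σ⁻¹ = lam (φ b) := by
  classical
  have hR : ∀ i, ∃ R : Set (m i).G, Subgroup.IsComplement ((m i).e.range : Set (m i).G) R := fun i => by
    obtain ⟨R, hR, -⟩ := Subgroup.exists_isComplement_right (m i).e.range 1
    exact ⟨R, hR⟩
  choose R hR using hR
  have hne : ∀ i, Nonempty ↥(R i) := fun i => ⟨((hR i).equiv 1).2⟩
  let L : Type u := ∀ i, ↥(R i)
  haveI : Nonempty L := ⟨fun i => (hne i).some⟩
  haveI : Finite L := Pi.finite
  let rest : ι → Type u := fun i => ∀ j : {j // j ≠ i}, ↥(R j)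
  let ψ : ∀ i, B × L ≃ (m i).G × rest i := fun i =>
    ((MonoidHom.ofInjective (m i).inj).toEquiv.prodCongr (Equiv.piSplitAt i fun j => ↥(R j))).trans
      ((Equiv.prodAssoc _ _ _).symm.trans ((hR i).equiv.symm.prodCongr (Equiv.refl _)))
  refine ⟨Equiv.Perm (B × L), inferInstance, inferInstance, lamB L, fun i => actVia (ψ i), lamB_injective,
    fun i => actVia_injective _, fun i b => ?_, fun φ => ⟨φ.toEquiv.prodCongr (Equiv.refl L), fun b => ?_⟩⟩
  · refine Equiv.ext fun x => (ψ i).injective ?_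
    obtain ⟨x, l⟩ := x
    show ψ i ((ψ i).symm ((m i).e b * (ψ i (x, l)).1, (ψ i (x, l)).2)) = ψ i (b * x, l)
    rw [Equiv.apply_symm_apply]
    refine Prod.ext ?_ rfl
    show (m i).e b * ((m i).e x * ((l i : ↥(R i)) : (m i).G)) = (m i).e (b * x) * ((l i : ↥(R i)) : (m i).G)
    rw [map_mul, mul_assoc]
  · rw [mul_inv_eq_iff_eq_mul]
    refine Equiv.ext fun x => ?_
    obtain ⟨x, l⟩ := x
    simp [lamB]

theorem common_ne_bot {B : Type u} [Group B] [Finite B] [Nontrivial B] : common B ≠ ⊥ := by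
  classical
  intro hbot
  have hex : ∀ W : {W : Subgroup B // W.Characteristic ∧ W ≠ ⊥}, ∃ m : Member B, ¬ (W.1.map m.e).Normal := by
    intro W
    by_contra hcon
    push Not at hcon
    exact W.2.2 (le_bot_iff.1 ((le_sSup (s := commonSet B) ⟨W.2.1, hcon⟩).trans hbot.le))
  choose m hm using hex
  haveI : Nonempty {W : Subgroup B // W.Characteristic ∧ W ≠ ⊥} := ⟨⟨⊤, inferInstance, top_ne_bot⟩⟩
  obtain ⟨Γ, _, _, lam, ρ, hlam, hρ, hρlam, hind⟩ := exists_ambient m
  have hS : ∀ i, (m i).e.range.map (ρ i) = lam.range := fun i => by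
    rw [MonoidHom.map_range]
    exact congrArg MonoidHom.range (MonoidHom.ext (hρlam i))
  have hcen : ∀ (i : {W : Subgroup B // W.Characteristic ∧ W ≠ ⊥}) (H K : Subgroup (m i).G),
      H ≤ Subgroup.centralizer (K : Set (m i).G) →
        H.map (ρ i) ≤ Subgroup.centralizer (K.map (ρ i) : Set Γ) := by
    rintro i H K hHK _ ⟨a, ha, rfl⟩
    rw [Subgroup.mem_centralizer_iff]
    rintro _ ⟨b, hb, rfl⟩
    rw [← map_mul, ← map_mul, Subgroup.mem_centralizer_iff.1 (hHK ha) b hb]
  have hnorm : ∀ i (H : Subgroup (m i).G), H.Normal →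
      (ρ i).range ≤ Subgroup.normalizer (H.map (ρ i) : Set Γ) := fun i H hH => by
    have h1 := Subgroup.le_normalizer_map (H := H) (ρ i)
    rwa [Subgroup.normalizer_eq_top_iff.2 hH, ← MonoidHom.range_eq_map] at h1
  let c : Conf Γ {W : Subgroup B // W.Characteristic ∧ W ≠ ⊥} :=
    { S := lam.range
      G := fun i => (ρ i).range
      Q := fun i => (m i).Q.map (ρ i)
      V := fun i => (m i).V.map (ρ i)
      q := fun i => (m i).q
      le_G := fun i => by rw [← hS i]; exact Subgroup.map_le_range _ _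
      Q_le := fun i => by rw [← hS i]; exact Subgroup.map_mono (m i).Q_le
      V_le := fun i => Subgroup.map_mono (m i).V_le
      normQ := fun i => hnorm i _ (m i).Qn
      normV := fun i => hnorm i _ (m i).Vn
      commVQ := fun i => hcen i _ _ (m i).commVQ
      V_ne := fun i h => (m i).V_ne ((Subgroup.map_eq_bot_iff_of_injective _ (hρ i)).1 h)
      one_lt := fun i => (m i).one_lt
      bound := fun i a ha haQ => by
        rw [← hS i] at ha
        obtain ⟨s, hs, rfl⟩ := ha
        refine ((m i).bound s hs fun h' => haQ (Subgroup.mem_map_of_mem _ h')).trans_eq ?_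
        rw [← Subgroup.relIndex_map_map_of_injective _ _ (hρ i)]
        congr 1
        ext x
        constructor
        · rintro ⟨y, ⟨hy, hyc⟩, rfl⟩
          refine ⟨Subgroup.mem_map_of_mem _ hy, Subgroup.mem_centralizer_singleton_iff.2 ?_⟩
          rw [← map_mul, ← map_mul, Subgroup.mem_centralizer_singleton_iff.1 hyc]
        · rintro ⟨⟨y, hy, rfl⟩, hyc⟩
          refine ⟨y, ⟨hy, Subgroup.mem_centralizer_singleton_iff.2 (hρ i ?_)⟩, rfl⟩
          rw [map_mul, map_mul]
          exact Subgroup.mem_centralizer_singleton_iff.1 hyc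
      card_le := fun i => by
        rw [← hS i, Subgroup.relIndex_map_map_of_injective _ _ (hρ i)]; exact (m i).card_le
      comm := fun i => by
        rw [← hS i, ← Subgroup.map_commutator]; exact hcen i _ _ (m i).comm
      root := fun i => by
        rw [← hS i, ← Subgroup.map_commutator, Subgroup.card_map_of_injective (hρ i)]; exact (m i).root }
  have main : ∀ W : Subgroup Γ, W ≤ c.S → Subgroup.normalizer (c.S : Set Γ) ≤ Subgroup.normalizer (W : Set Γ) →
      (∀ i, c.G i ≤ Subgroup.normalizer (W : Set Γ)) → W = ⊥ := by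
    intro W hWS hWN hWG
    by_contra hne
    have hW : (W.comap lam).map lam = W := Subgroup.map_comap_eq_self hWS
    have hchar : (W.comap lam).Characteristic := by
      rw [Subgroup.characteristic_iff_map_le]
      intro φ
      obtain ⟨σ, hσ⟩ := hind φ
      have hσN : σ ∈ Subgroup.normalizer (c.S : Set Γ) := by
        refine mem_normalizer_of_cj_eq (le_antisymm ?_ ?_)
        · rintro _ ⟨_, ⟨b, rfl⟩, rfl⟩
          exact ⟨φ b, (hσ b).symm⟩
        · rintro _ ⟨b, rfl⟩
          exact ⟨lam (φ.symm b), ⟨_, rfl⟩, by simpa using hσ (φ.symm b)⟩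
      rintro _ ⟨b, hb, rfl⟩
      show lam (φ b) ∈ W
      rw [← hσ b]
      exact (Subgroup.mem_normalizer_iff.1 (hWN hσN) _).1 hb
    have hne' : W.comap lam ≠ ⊥ := fun h => hne (by rw [← hW, h, Subgroup.map_bot])
    let i : {W : Subgroup B // W.Characteristic ∧ W ≠ ⊥} := ⟨W.comap lam, hchar, hne'⟩
    refine hm i ⟨fun x hx g => ?_⟩
    obtain ⟨b, hb, rfl⟩ := hx
    have h1 : ρ i (g * (m i).e b * g⁻¹) ∈ W := by
      rw [map_mul, map_mul, map_inv, hρlam]
      exact (Subgroup.mem_normalizer_iff.1 (hWG i ⟨g, rfl⟩) _).1 hb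
    obtain ⟨b', hb'⟩ := hWS h1
    refine ⟨b', ?_, hρ i ((hρlam i b').trans hb')⟩
    show lam b' ∈ W
    rw [hb']; exact h1
  obtain ⟨k, hk⟩ := c.exists_isB main
  obtain ⟨P, E, hP, hc⟩ := hk.exists_pair
  obtain ⟨y, hy, hyQ⟩ := SetLike.not_le_iff_exists.1 hc
  obtain ⟨e, a, -, he, -, hE⟩ := hP 0 hk.pos
  set i := (P 0).1 with hi
  have hyE := hk.le_syl hP hy
  have hS' : c.S = (m i).e.range.map (ρ i) := (hS i).symm
  rw [hE, mem_cj, hS'] at hyE
  obtain ⟨s, hs, hsy⟩ := hyE
  have hy' : y = e * ρ i s * e⁻¹ := by rw [hsy]; group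
  rw [c.Qx_eq he, mem_cj, ← hsy] at hyQ
  refine (m i).failing s hs (fun h => hyQ (Subgroup.mem_map_of_mem _ h)) fun U W hUW hUQ u hu => ?_
  have hG : c.Gx (P 0) = cj e (ρ i).range := c.Gx_eq he
  have hn : ∀ H : Subgroup (m i).G, H.Normal →
      c.Gx (P 0) ≤ Subgroup.normalizer (cj e (H.map (ρ i)) : Set Γ) := fun H hH => by
    rw [hG, ← cj_normalizer]; exact cj_mono e (hnorm i H hH)
  have hq := hk.quad hP hc hy (U := cj e (U.map (ρ i))) (W := cj e (W.map (ρ i)))
    (cj_mono e (Subgroup.map_mono hUW.1.le)) (by rw [c.Qx_eq he]; exact cj_mono e (Subgroup.map_mono hUQ))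
    (hn U hUW.2.1) (hn W hUW.2.2.1) (fun K h1 h2 h3 => ?_) _ (conj_mem_cj (Subgroup.mem_map_of_mem _ hu))
  · have hh : ∀ a b : Γ, ⁅e * a * e⁻¹, e * b * e⁻¹⁆ = e * ⁅a, b⁆ * e⁻¹ := fun a b => by
      simp only [commutatorElement_def]; group
    rw [hy', hh, hh, ← map_commutatorElement, ← map_commutatorElement, mem_cj] at hq
    rw [show e⁻¹ * (e * ρ i ⁅⁅u, s⁆, s⁆ * e⁻¹) * e = ρ i ⁅⁅u, s⁆, s⁆ by group] at hq
    exact (Subgroup.mem_map_iff_mem (hρ i)).1 hq
  set K₀ := (cj e⁻¹ K).comap (ρ i) with hK₀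
  have hle : cj e⁻¹ K ≤ (ρ i).range := by
    have := cj_mono e⁻¹ h2
    rw [cj_inv_cj] at this
    exact this.trans (Subgroup.map_le_range _ _)
  have hKe : cj e (K₀.map (ρ i)) = K := by rw [hK₀, Subgroup.map_comap_eq_self hle, cj_cj_inv]
  have hKn : K₀.Normal := ⟨fun x hx g => by
    have h4 : e * ρ i g * e⁻¹ ∈ Subgroup.normalizer (K : Set Γ) := h3 (hG ▸ conj_mem_cj ⟨g, rfl⟩)
    rw [hK₀, Subgroup.mem_comap, mem_cj] at hx ⊢
    have h5 := (Subgroup.mem_normalizer_iff.1 h4 _).1 hx
    convert h5 using 1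
    rw [map_mul, map_mul, map_inv]; group⟩
  have e1 : W ≤ K₀ := fun x hx => by
    rw [hK₀, Subgroup.mem_comap, mem_cj]
    have := h1 (conj_mem_cj (x := e) (Subgroup.mem_map_of_mem (ρ i) hx))
    simpa [mul_assoc] using this
  have e2 : K₀ ≤ U := fun x hx => by
    rw [hK₀, Subgroup.mem_comap, mem_cj] at hx
    have := mem_cj.1 (h2 hx)
    rw [show e⁻¹ * (e⁻¹⁻¹ * ρ i x * e⁻¹) * e = ρ i x by group] at this
    exact (Subgroup.mem_map_iff_mem (hρ i)).1 this
  rcases hUW.2.2.2 K₀ hKn e1 e2 with h | h <;> [left; right] <;> rw [← hKe, h]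

end CfsgLib.TransferThree23
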