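import Cfsg.Agent.PushingUp44.Conj

/-!
A light pushing-up configuration: finitely many groups with a common `p`-subgroup `S` inside one finite group,
each with a module `V i` on which the elements of `S` outside `Q i` are large transvection-like maps.
-/

set_option autoImplicit false

open scoped commutatorElement
open CfsgLib.PushingUp44

namespace CfsgLib.TransferThree23

/-- The data. -/
structure Conf (Γ : Type*) [Group Γ] (ι : Type*) where
  S : Subgroup Γ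
  G : ι → Subgroup Γ
  Q : ι → Subgroup Γ
  V : ι → Subgroup Γ
  q : ι → ℕ
  le_G : ∀ i, S ≤ G i
  Q_le : ∀ i, Q i ≤ S
  V_le : ∀ i, V i ≤ Q i
  normQ : ∀ i, G i ≤ Subgroup.normalizer (Q i : Set Γ)
  normV : ∀ i, G i ≤ Subgroup.normalizer (V i : Set Γ)
  commVQ : ∀ i, Q i ≤ Subgroup.centralizer (V i : Set Γ)
  V_ne : ∀ i, V i ≠ ⊥
  one_lt : ∀ i, 1 < q i
  bound : ∀ i, ∀ a ∈ S, a ∉ Q i → q i ≤ (V i ⊓ Subgroup.centralizer ({a} : Set Γ)).relIndex (V i)
  card_le : ∀ i, (Q i).relIndex S ≤ q i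
  comm : ∀ i, ⁅V i, S⁆ ≤ Subgroup.centralizer (S : Set Γ)
  root : ∀ i, Nat.card ↥⁅V i, S⁆ ≤ q i

namespace Conf

variable {Γ : Type*} [Group Γ] {ι : Type*} (c : Conf Γ ι)

/-- Vertices. -/
abbrev Vtx (_c : Conf Γ ι) : Type _ := ι × Γ

def Gx (v : c.Vtx) : Subgroup Γ := cj v.2 (c.G v.1)
def Qx (v : c.Vtx) : Subgroup Γ := cj v.2 (c.Q v.1)
def Vx (v : c.Vtx) : Subgroup Γ := cj v.2 (c.V v.1)
def qx (v : c.Vtx) : ℕ := c.q v.1

/-- `E` is a distinguished `p`-subgroup at the vertex `v`. -/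
def Syl (v : c.Vtx) (E : Subgroup Γ) : Prop := ∃ g, v.2⁻¹ * g ∈ c.G v.1 ∧ E = cj g c.S

theorem Vx_le_Qx (v : c.Vtx) : c.Vx v ≤ c.Qx v := cj_mono _ (c.V_le _)

theorem Qx_le_centralizer (v : c.Vtx) : c.Qx v ≤ Subgroup.centralizer (c.Vx v : Set Γ) := by
  unfold Qx Vx
  rw [← cj_centralizer]
  exact cj_mono _ (c.commVQ _)

theorem commute_Vx {v : c.Vtx} {a b : Γ} (ha : a ∈ c.Vx v) (hb : b ∈ c.Qx v) : Commute a b :=
  (commute_of_le_centralizer (c.Qx_le_centralizer v) hb ha).symm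

theorem Vx_comm (v : c.Vtx) : c.Vx v ≤ Subgroup.centralizer (c.Vx v : Set Γ) :=
  (c.Vx_le_Qx v).trans (c.Qx_le_centralizer v)

theorem Gx_le_normV (v : c.Vtx) : c.Gx v ≤ Subgroup.normalizer (c.Vx v : Set Γ) := by
  rw [Gx, Vx, ← cj_normalizer]
  exact cj_mono _ (c.normV _)

theorem Gx_le_normQ (v : c.Vtx) : c.Gx v ≤ Subgroup.normalizer (c.Qx v : Set Γ) := by
  rw [Gx, Qx, ← cj_normalizer]
  exact cj_mono _ (c.normQ _)

theorem cj_G_eq {i : ι} {g : Γ} (hg : g ∈ c.G i) : cj g (c.G i) = c.G i :=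
  cj_eq_of_le_normalizer (Subgroup.le_normalizer hg)

theorem cj_Q_eq {i : ι} {g : Γ} (hg : g ∈ c.G i) : cj g (c.Q i) = c.Q i :=
  cj_eq_of_le_normalizer (c.normQ i hg)

theorem cj_V_eq {i : ι} {g : Γ} (hg : g ∈ c.G i) : cj g (c.V i) = c.V i :=
  cj_eq_of_le_normalizer (c.normV i hg)

section rep

variable {v : c.Vtx} {g : Γ}

theorem Gx_eq (hg : v.2⁻¹ * g ∈ c.G v.1) : c.Gx v = cj g (c.G v.1) := by
  rw [Gx]; conv_lhs => rw [← c.cj_G_eq hg, cj_cj, mul_inv_cancel_left]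

theorem Qx_eq (hg : v.2⁻¹ * g ∈ c.G v.1) : c.Qx v = cj g (c.Q v.1) := by
  rw [Qx]; conv_lhs => rw [← c.cj_Q_eq hg, cj_cj, mul_inv_cancel_left]

theorem Vx_eq (hg : v.2⁻¹ * g ∈ c.G v.1) : c.Vx v = cj g (c.V v.1) := by
  rw [Vx]; conv_lhs => rw [← c.cj_V_eq hg, cj_cj, mul_inv_cancel_left]

end rep

theorem Syl.cj_eq {v : c.Vtx} {E : Subgroup Γ} (h : c.Syl v E) {x : Γ} (hx : x ∈ c.Gx v) :
    c.Syl v (cj x E) := by
  obtain ⟨g, hg, rfl⟩ := h
  refine ⟨x * g, ?_, cj_cj _ _ _⟩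
  rw [show v.2⁻¹ * (x * g) = v.2⁻¹ * x * v.2 * (v.2⁻¹ * g) by group]
  exact mul_mem (mem_cj.1 hx) hg

section syl

variable {v : c.Vtx} {E : Subgroup Γ} (h : c.Syl v E)
include h

theorem syl_le_Gx : E ≤ c.Gx v := by
  obtain ⟨g, hg, rfl⟩ := h
  rw [c.Gx_eq hg]; exact cj_mono _ (c.le_G _)

theorem Qx_le_syl : c.Qx v ≤ E := by
  obtain ⟨g, hg, rfl⟩ := h
  rw [c.Qx_eq hg]; exact cj_mono _ (c.Q_le _)

theorem Vx_le_syl : c.Vx v ≤ E := (c.Vx_le_Qx v).trans (c.Qx_le_syl h)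

theorem syl_bound {a : Γ} (ha : a ∈ E) (haQ : a ∉ c.Qx v) :
    c.qx v ≤ (c.Vx v ⊓ Subgroup.centralizer ({a} : Set Γ)).relIndex (c.Vx v) := by
  obtain ⟨g, hg, rfl⟩ := h
  rw [c.Qx_eq hg, mem_cj] at haQ
  have h1 := c.bound v.1 _ (mem_cj.1 ha) haQ
  rw [← relIndex_cj g, cj_inf, cj_centralizer_singleton, ← c.Vx_eq hg,
    show g * (g⁻¹ * a * g) * g⁻¹ = a by group] at h1
  exact h1

theorem syl_card : (c.Qx v).relIndex E ≤ c.qx v := by
  obtain ⟨g, hg, rfl⟩ := h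
  rw [c.Qx_eq hg, relIndex_cj]; exact c.card_le _

theorem syl_comm : ⁅c.Vx v, E⁆ ≤ Subgroup.centralizer (E : Set Γ) := by
  obtain ⟨g, hg, rfl⟩ := h
  rw [c.Vx_eq hg, ← cj_centralizer, ← cj_commutator]
  exact cj_mono _ (c.comm _)

theorem syl_root : Nat.card ↥⁅c.Vx v, E⁆ ≤ c.qx v := by
  obtain ⟨g, hg, rfl⟩ := h
  rw [c.Vx_eq hg, ← cj_commutator, cj,
    Subgroup.card_map_of_injective (f := (MulAut.conj g).toMonoidHom) (MulAut.conj g).injective]
  exact c.root _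

end syl

/-- `v` and `w` are adjacent along the edge group `E`. -/
def Step (v w : c.Vtx) (E : Subgroup Γ) : Prop :=
  ∃ e a, a ∈ Subgroup.normalizer (c.S : Set Γ) ∧ v.2⁻¹ * e ∈ c.G v.1 ∧
    w.2⁻¹ * (e * a) ∈ c.G w.1 ∧ E = cj e c.S

variable {c}

theorem Step.symm {v w : c.Vtx} {E : Subgroup Γ} (h : c.Step v w E) : c.Step w v E := by
  obtain ⟨e, a, ha, h1, h2, rfl⟩ := h
  refine ⟨e * a, a⁻¹, inv_mem ha, h2, by rwa [mul_inv_cancel_right], ?_⟩
  rw [← cj_cj, cj_eq_of_le_normalizer ha]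

theorem Step.syl_left {v w : c.Vtx} {E : Subgroup Γ} (h : c.Step v w E) : c.Syl v E := by
  obtain ⟨e, a, -, h1, -, rfl⟩ := h
  exact ⟨e, h1, rfl⟩

theorem Step.syl_right {v w : c.Vtx} {E : Subgroup Γ} (h : c.Step v w E) : c.Syl w E :=
  h.symm.syl_left

theorem Syl.step_self {v : c.Vtx} {E : Subgroup Γ} (h : c.Syl v E) : c.Step v v E := by
  obtain ⟨e, h1, rfl⟩ := h
  exact ⟨e, 1, one_mem _, h1, by rwa [mul_one], rfl⟩

variable (c)

/-- Left translation of vertices. -/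
def act (x : Γ) (v : c.Vtx) : c.Vtx := (v.1, x * v.2)

theorem Gx_act (x : Γ) (v : c.Vtx) : c.Gx (c.act x v) = cj x (c.Gx v) := (cj_cj _ _ _).symm
theorem Qx_act (x : Γ) (v : c.Vtx) : c.Qx (c.act x v) = cj x (c.Qx v) := (cj_cj _ _ _).symm
theorem Vx_act (x : Γ) (v : c.Vtx) : c.Vx (c.act x v) = cj x (c.Vx v) := (cj_cj _ _ _).symm

variable {c}

theorem Syl.act {v : c.Vtx} {E : Subgroup Γ} (h : c.Syl v E) (x : Γ) : c.Syl (c.act x v) (cj x E) := by
  obtain ⟨g, hg, rfl⟩ := h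
  exact ⟨x * g, by simpa [Conf.act, mul_assoc] using hg, cj_cj _ _ _⟩

theorem Step.act {v w : c.Vtx} {E : Subgroup Γ} (h : c.Step v w E) (x : Γ) :
    c.Step (c.act x v) (c.act x w) (cj x E) := by
  obtain ⟨e, a, ha, h1, h2, rfl⟩ := h
  refine ⟨x * e, a, ha, ?_, ?_, cj_cj _ _ _⟩
  · simpa [Conf.act, mul_assoc] using h1
  · simpa [Conf.act, mul_assoc] using h2

theorem Step.act_right {v w : c.Vtx} {E : Subgroup Γ} (h : c.Step v w E) {x : Γ} (hx : x ∈ c.Gx v) :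
    c.Step v (c.act x w) (cj x E) := by
  obtain ⟨e, a, ha, h1, h2, rfl⟩ := h
  refine ⟨x * e, a, ha, ?_, ?_, cj_cj _ _ _⟩
  · rw [show v.2⁻¹ * (x * e) = v.2⁻¹ * x * v.2 * (v.2⁻¹ * e) by group]
    exact mul_mem (mem_cj.1 hx) h1
  · simpa [Conf.act, mul_assoc] using h2

variable (c)

/-- A sequence of `j` steps. -/
def IsPath (j : ℕ) (P : ℕ → c.Vtx) (E : ℕ → Subgroup Γ) : Prop :=
  ∀ i < j, c.Step (P i) (P (i + 1)) (E i)

/-- Distance at most `j`. -/
def Near (j : ℕ) (v w : c.Vtx) : Prop :=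
  ∃ (P : ℕ → c.Vtx) (E : ℕ → Subgroup Γ), c.IsPath j P E ∧ P 0 = v ∧ P j = w

variable {c}

theorem IsPath.near {j : ℕ} {P : ℕ → c.Vtx} {E : ℕ → Subgroup Γ} (h : c.IsPath j P E) {a b : ℕ}
    (hab : a ≤ b) (hb : b ≤ j) : c.Near (b - a) (P a) (P b) := by
  refine ⟨fun i => P (a + i), fun i => E (a + i), fun i hi => h (a + i) (by omega), rfl, ?_⟩
  simp [Nat.add_sub_cancel' hab]

theorem IsPath.reverse {j : ℕ} {P : ℕ → c.Vtx} {E : ℕ → Subgroup Γ} (h : c.IsPath j P E) :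
    c.IsPath j (fun i => P (j - i)) (fun i => E (j - 1 - i)) := by
  intro i hi
  have h1 := (h (j - 1 - i) (by omega)).symm
  rw [show j - 1 - i + 1 = j - i by omega] at h1
  show c.Step (P (j - i)) (P (j - (i + 1))) (E (j - 1 - i))
  rw [show j - (i + 1) = j - 1 - i by omega]
  exact h1

theorem Near.symm {j : ℕ} {v w : c.Vtx} (h : c.Near j v w) : c.Near j w v := by
  obtain ⟨P, E, hP, h0, hj⟩ := h
  exact ⟨_, _, hP.reverse, by simpa using hj, by simpa using h0⟩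

theorem near_self (v : c.Vtx) : c.Near 0 v v :=
  ⟨fun _ => v, fun _ => c.S, fun i hi => absurd hi (by omega), rfl, rfl⟩

theorem Near.trans {i j : ℕ} {u v w : c.Vtx} (h : c.Near i u v) (h' : c.Near j v w) :
    c.Near (i + j) u w := by
  obtain ⟨P, E, hP, h0, hi⟩ := h
  obtain ⟨P', E', hP', h0', hj⟩ := h'
  refine ⟨fun n => if n ≤ i then P n else P' (n - i), fun n => if n < i then E n else E' (n - i),
    fun n hn => ?_, ?_, ?_⟩
  · dsimp only
    by_cases hni : n < i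
    · rw [if_pos hni.le, if_pos (show n + 1 ≤ i by omega), if_pos hni]
      exact hP n hni
    · rw [if_neg (show ¬ n + 1 ≤ i by omega), if_neg hni, show n + 1 - i = (n - i) + 1 by omega]
      rcases (show i ≤ n by omega).lt_or_eq with h | h
      · rw [if_neg (by omega)]; exact hP' _ (by omega)
      · rw [if_pos h.ge, ← h, hi, ← h0', Nat.sub_self]; exact hP' 0 (by omega)
  · dsimp only; rw [if_pos (by omega), h0]
  · dsimp only
    by_cases hj0 : i + j ≤ i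
    · rw [if_pos hj0, show i + j = i by omega, hi, ← hj, show j = 0 by omega, h0']
    · rw [if_neg hj0, Nat.add_sub_cancel_left, hj]

theorem Step.near {v w : c.Vtx} {E : Subgroup Γ} (h : c.Step v w E) : c.Near 1 v w := by
  refine ⟨fun i => if i = 0 then v else w, fun _ => E, fun i hi => ?_, rfl, rfl⟩
  obtain rfl : i = 0 := by omega
  exact h

theorem Near.mono {j j' : ℕ} {v w : c.Vtx} (h : c.Near j v w) (hj : j ≤ j') : c.Near j' v w := by
  induction hj with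
  | refl => exact h
  | step _ ih => exact ih.trans (Syl.step_self ⟨w.2, by simp, rfl⟩).near

theorem Near.act {j : ℕ} {v w : c.Vtx} (h : c.Near j v w) (x : Γ) :
    c.Near j (c.act x v) (c.act x w) := by
  obtain ⟨P, E, hP, h0, hj⟩ := h
  exact ⟨fun i => c.act x (P i), fun i => cj x (E i), fun i hi => (hP i hi).act x, by simp only [h0],
    by simp only [hj]⟩

/-- Two translates of the end of a path by elements of the group of its start are close. -/
theorem IsPath.near_translate {j : ℕ} {P : ℕ → c.Vtx} {E : ℕ → Subgroup Γ} (h : c.IsPath j P E)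
    {a b : ℕ} (hlt : a < b) (hb : b ≤ j) {x : Γ} (hx : x ∈ c.Gx (P a)) :
    c.Near (b - a) (P a) (c.act x (P b)) := by
  rw [show b - a = 1 + (b - (a + 1)) by omega]
  exact ((h a (by omega)).act_right hx).near.trans ((h.near (show a + 1 ≤ b by omega) hb).act x)

variable (c)

/-- The least distance with a module outside the other core. -/
structure IsB (k : ℕ) : Prop where
  pos : 1 ≤ k
  small : ∀ {j : ℕ} {v w : c.Vtx}, j < k → c.Near j v w → c.Vx w ≤ c.Qx v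
  exists_pair : ∃ (P : ℕ → c.Vtx) (E : ℕ → Subgroup Γ), c.IsPath k P E ∧ ¬ c.Vx (P k) ≤ c.Qx (P 0)

theorem exists_isB [Finite Γ] [Nonempty ι]
    (main : ∀ W : Subgroup Γ, W ≤ c.S → Subgroup.normalizer (c.S : Set Γ) ≤ Subgroup.normalizer (W : Set Γ) →
      (∀ i, c.G i ≤ Subgroup.normalizer (W : Set Γ)) → W = ⊥) :
    ∃ k, c.IsB k := by
  classical
  let base : ι := Classical.arbitrary ι
  have hex : ∃ j, ∃ (P : ℕ → c.Vtx) (E : ℕ → Subgroup Γ), c.IsPath j P E ∧ ¬ c.Vx (P j) ≤ c.Qx (P 0) := by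
    by_contra hcon
    push Not at hcon
    set v₀ : c.Vtx := (base, 1) with hv₀
    set W : Subgroup Γ := ⨆ w : {w : c.Vtx // ∃ j, c.Near j v₀ w}, c.Vx w.1 with hW
    have hinv : ∀ (x : Γ), (∃ j, c.Near j v₀ (c.act x v₀)) → cj x W ≤ W := by
      rintro x ⟨i, hi⟩
      rw [hW, cj_iSup]
      refine iSup_le fun ⟨w, j, hw⟩ => ?_
      rw [← c.Vx_act]
      exact le_iSup_of_le ⟨c.act x w, i + j, hi.trans (hw.act x)⟩ le_rfl
    have hWne : W ≠ ⊥ := by
      intro h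
      refine c.V_ne base (le_bot_iff.1 (h ▸ ?_))
      refine le_iSup_of_le ⟨v₀, 0, near_self v₀⟩ ?_
      simp [Vx, hv₀]
    refine hWne (main W ?_ (le_normalizer_of_conj_le fun a ha => hinv a ?_)
      fun i => le_normalizer_of_conj_le fun g hg => hinv g ?_)
    · refine iSup_le fun ⟨w, j, P, E, hP, h0, hj⟩ => ?_
      refine (hj ▸ h0 ▸ hcon j P E hP).trans ?_
      simpa [Qx, hv₀] using c.Q_le base
    · exact ⟨1, Step.near (E := c.S) ⟨1, a, ha, by simp [hv₀], by simp [hv₀, act], (cj_one _).symm⟩⟩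
    · refine ⟨1 + 1 + 1, ((Step.near (w := (i, 1)) (E := c.S) ⟨1, 1, one_mem _, by simp [hv₀], by simp,
        (cj_one _).symm⟩).trans (Step.near (w := (i, g)) (E := c.S) ⟨1, 1, one_mem _, by simp,
          by simpa using inv_mem hg, (cj_one _).symm⟩)).trans
        (Step.near (E := cj g c.S) ⟨g, 1, one_mem _, by simp, by simp [act, hv₀], rfl⟩)⟩
  refine ⟨Nat.find hex, ?_, fun {j v w} hj hn => ?_, Nat.find_spec hex⟩
  · refine Nat.one_le_iff_ne_zero.2 fun h0 => ?_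
    obtain ⟨P, E, -, hn⟩ := Nat.find_spec hex
    rw [h0] at hn
    exact hn (c.Vx_le_Qx _)
  · by_contra h
    obtain ⟨P, E, hP, rfl, rfl⟩ := hn
    exact Nat.find_min hex hj ⟨P, E, hP, h⟩

variable {c} [Finite Γ] {k : ℕ} {P : ℕ → c.Vtx} {E : ℕ → Subgroup Γ}

namespace IsB

theorem commute_near (hk : c.IsB k) {j : ℕ} (hj : j < k) {v w : c.Vtx} (h : c.Near j v w) {a b : Γ}
    (ha : a ∈ c.Vx w) (hb : b ∈ c.Vx v) : Commute a b :=
  (c.commute_Vx hb (hk.small hj h ha)).symm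

theorem le_syl (hk : c.IsB k) (hP : c.IsPath k P E) : c.Vx (P k) ≤ E 0 := by
  have hpos := hk.pos
  exact (hk.small (by omega) (hP.near (a := 1) (by omega) le_rfl)).trans
    (c.Qx_le_syl (hP 0 (by omega)).syl_right)

theorem le_syl_last (hk : c.IsB k) (hP : c.IsPath k P E) : c.Vx (P 0) ≤ E (k - 1) := by
  simpa using hk.le_syl hP.reverse

theorem inf_centralizer (hk : c.IsB k) (hP : c.IsPath k P E) :
    c.Vx (P k) ⊓ Subgroup.centralizer (c.Vx (P 0) : Set Γ) = c.Vx (P k) ⊓ c.Qx (P 0) := by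
  refine le_antisymm (fun x hx => ⟨hx.1, ?_⟩) (inf_le_inf_left _ (c.Qx_le_centralizer _))
  by_contra hxQ
  have hpos := hk.pos
  have h1 := c.syl_bound (hP 0 (by omega)).syl_left (hk.le_syl hP hx.1) hxQ
  have h2 : c.Vx (P 0) ≤ c.Vx (P 0) ⊓ Subgroup.centralizer ({x} : Set Γ) := fun y hy =>
    ⟨hy, Subgroup.mem_centralizer_singleton_iff.2 (Subgroup.mem_centralizer_iff.1 hx.2 y hy)⟩
  rw [Subgroup.relIndex_eq_one.2 h2] at h1
  exact absurd (c.one_lt _) (not_lt.2 h1)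

theorem not_commute_iff (hk : c.IsB k) (hP : c.IsPath k P E) :
    ¬ c.Vx (P k) ≤ Subgroup.centralizer (c.Vx (P 0) : Set Γ) ↔ ¬ c.Vx (P k) ≤ c.Qx (P 0) := by
  rw [← inf_eq_left, hk.inf_centralizer hP, inf_eq_left]

theorem reverse (hk : c.IsB k) (hP : c.IsPath k P E) (hc : ¬ c.Vx (P k) ≤ c.Qx (P 0)) :
    ¬ c.Vx (P 0) ≤ c.Qx (P k) := by
  intro hle
  refine (hk.not_commute_iff hP).2 hc ?_
  rw [Subgroup.le_centralizer_iff]
  exact hle.trans (c.Qx_le_centralizer _)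

theorem centralizer_eq_inf_core (hk : c.IsB k) (hP : c.IsPath k P E) :
    c.Vx (P 0) ⊓ Subgroup.centralizer (c.Vx (P k) : Set Γ) = c.Vx (P 0) ⊓ c.Qx (P k) := by
  simpa using hk.inf_centralizer hP.reverse

theorem relIndex_bounds (hk : c.IsB k) (hP : c.IsPath k P E) (hc : ¬ c.Vx (P k) ≤ c.Qx (P 0)) :
    c.qx (P 0) ≤ (c.Qx (P k)).relIndex (c.Vx (P 0)) ∧
      (c.Qx (P k)).relIndex (c.Vx (P 0)) ≤ c.qx (P k) := by
  have hpos := hk.pos
  refine ⟨?_, (relIndex_mono_right _ (hk.le_syl_last hP)).trans ?_⟩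
  · obtain ⟨x, hx, hxQ⟩ := SetLike.not_le_iff_exists.1 hc
    refine (c.syl_bound (hP 0 (by omega)).syl_left (hk.le_syl hP hx) hxQ).trans ?_
    rw [← Subgroup.inf_relIndex_left (c.Vx (P 0)) (c.Qx (P k)), ← hk.centralizer_eq_inf_core hP]
    refine relIndex_anti_left (inf_le_inf_left _ fun y hy => ?_) _
    exact Subgroup.mem_centralizer_singleton_iff.2 (Subgroup.mem_centralizer_iff.1 hy x hx).symm
  · refine c.syl_card ?_
    have h := (hP (k - 1) (by omega)).syl_right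
    rwa [show k - 1 + 1 = k by omega] at h

/-- `V_k O_p(G_0)` is the first edge group. -/
theorem sup_eq (hk : c.IsB k) (hP : c.IsPath k P E) (hc : ¬ c.Vx (P k) ≤ c.Qx (P 0)) :
    c.Vx (P k) ⊔ c.Qx (P 0) = E 0 := by
  have hpos := hk.pos
  have hb := hk.relIndex_bounds hP hc
  have hb' : c.qx (P k) ≤ (c.Qx (P 0)).relIndex (c.Vx (P k)) := by
    have h := (hk.relIndex_bounds hP.reverse (by simpa using hk.reverse hP hc)).1
    simpa using h
  have hq : c.qx (P 0) ≤ c.qx (P k) := hb.1.trans hb.2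
  have hE := c.syl_card (hP 0 (by omega)).syl_left
  have hQE := c.Qx_le_syl (hP 0 (by omega)).syl_left
  set X := c.Vx (P k) ⊔ c.Qx (P 0) with hX
  have hXE : X ≤ E 0 := sup_le (hk.le_syl hP) hQE
  refine le_antisymm hXE (Subgroup.relIndex_eq_one.1 ?_)
  have h1 := Subgroup.relIndex_mul_relIndex _ _ _ (le_sup_right : c.Qx (P 0) ≤ X) hXE
  have h2 := relIndex_mono_right (c.Qx (P 0)) (le_sup_left : c.Vx (P k) ≤ X)
  have h3 := relIndex_pos X (E 0)
  have := c.one_lt (P 0).1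
  unfold Conf.qx at *
  nlinarith

theorem commutator_le_inf (hk : c.IsB k) (hP : c.IsPath k P E) :
    ⁅c.Vx (P 0), c.Vx (P k)⁆ ≤ c.Vx (P 0) ⊓ c.Vx (P k) := by
  have hpos := hk.pos
  have h0 : c.Vx (P k) ≤ Subgroup.normalizer (c.Vx (P 0) : Set Γ) :=
    (hk.le_syl hP).trans ((c.syl_le_Gx (hP 0 (by omega)).syl_left).trans (c.Gx_le_normV _))
  have hk' : c.Vx (P 0) ≤ Subgroup.normalizer (c.Vx (P k) : Set Γ) := by
    refine (hk.le_syl_last hP).trans ?_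
    have h := (hP (k - 1) (by omega)).syl_right
    rw [show k - 1 + 1 = k by omega] at h
    exact (c.syl_le_Gx h).trans (c.Gx_le_normV _)
  exact le_inf (Subgroup.le_normalizer_iff_commutator_le_left.1 h0) (Subgroup.le_normalizer_iff_commutator_le_right.1 hk')

theorem commutator_eq (hk : c.IsB k) (hP : c.IsPath k P E) (hc : ¬ c.Vx (P k) ≤ c.Qx (P 0)) :
    ⁅c.Vx (P 0), E 0⁆ = ⁅c.Vx (P 0), c.Vx (P k)⁆ := by
  have hpos := hk.pos
  refine le_antisymm (Subgroup.commutator_le.2 fun w hw s hs => ?_)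
    (Subgroup.commutator_mono le_rfl (hk.le_syl hP))
  rw [← hk.sup_eq hP hc] at hs
  have hn : c.Vx (P k) ≤ Subgroup.normalizer (c.Qx (P 0) : Set Γ) :=
    (hk.le_syl hP).trans ((c.syl_le_Gx (hP 0 (by omega)).syl_left).trans (c.Gx_le_normQ _))
  obtain ⟨v, hv, x, hx, rfl⟩ := exists_mul_of_mem_sup hn hs
  rw [comm_mul_right, commute_comm_one (c.commute_Vx hw hx), mul_one, mul_inv_cancel, mul_one]
  exact Subgroup.commutator_mem_commutator hw hv

end IsB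

end Conf

end CfsgLib.TransferThree23
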