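import Cfsg.Agent.TransferThree23.Common
import Cfsg.Agent.TwoSubgroup16.Natural

/-!
The functor `K(P)`, the common subgroup of the Baumann subgroup of `P`.
-/

set_option autoImplicit false

open Cfsg

namespace CfsgLib.TransferThree23

universe u

/-- The common subgroup of `H`, viewed in the ambient group. -/
def commonIn {X : Type u} [Group X] (H : Subgroup X) : Subgroup X := (common ↥H).map H.subtype

theorem commonIn_le {X : Type u} [Group X] (H : Subgroup X) : commonIn H ≤ H := Subgroup.map_subtype_le _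

theorem commonIn_map {X Y : Type u} [Group X] [Group Y] (f : X →* Y) (hf : Function.Injective f) (H : Subgroup X) :
    commonIn (H.map f) = (commonIn H).map f := by
  rw [commonIn, commonIn, ← common_map (H.equivMapOfInjective f hf), Subgroup.map_map, Subgroup.map_map]
  congr 1

theorem charIn_common {X : Type u} [Group X] (H : Subgroup X) : CfsgLib.TwoSubgroup16.CharIn (commonIn H) H := by
  refine ⟨commonIn_le H, fun σ x hx => ?_⟩
  obtain ⟨y, hy, hyx⟩ := hx
  obtain rfl : y = x := H.subtype_injective hyx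
  refine ⟨σ y, ?_, rfl⟩
  rw [← common_map σ]
  exact Subgroup.mem_map_of_mem _ hy

theorem commonIn_ne_bot {X : Type u} [Group X] [Finite X] {H : Subgroup X} (hH : H ≠ ⊥) : commonIn H ≠ ⊥ := by
  haveI : Nontrivial ↥H := (Subgroup.nontrivial_iff_ne_bot H).2 hH
  rw [commonIn, Ne, Subgroup.map_eq_bot_iff_of_injective _ H.subtype_injective]
  exact common_ne_bot

theorem baumann_ne_bot {p : ℕ} [Fact p.Prime] {X : Type u} [Group X] [Finite X] {T : Subgroup X}
    (hTp : IsPGroup p ↥T) (hT : T ≠ ⊥) : baumannSubgroupOf p T ≠ ⊥ := by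
  haveI : Nontrivial ↥T := (Subgroup.nontrivial_iff_ne_bot T).2 hT
  obtain ⟨z, hz, hz1⟩ : ∃ z : ↥T, z ∈ Subgroup.center ↥T ∧ z ≠ 1 := by
    haveI := hTp.center_nontrivial
    obtain ⟨w, hw⟩ := exists_ne (1 : Subgroup.center ↥T)
    exact ⟨w, w.2, fun h => hw (Subtype.ext h)⟩
  intro h
  apply hz1
  have hzB : (z : X) ∈ baumannSubgroupOf p T := by
    refine CfsgLib.TwoSubgroup16.mem_baumann_iff.2 ⟨z.2, fun w hw => ?_⟩
    have hwT : w ∈ T :=
      Subgroup.map_subtype_le _ (CfsgLib.TwoSubgroup16.mem_zThompson_iff.1 hw).1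
    exact congrArg Subtype.val (Subgroup.mem_center_iff.1 hz ⟨w, hwT⟩)
  rw [h, Subgroup.mem_bot] at hzB
  exact Subtype.ext hzB

/-- `K(Q)`. -/
def kFunctor (p : ℕ) : ∀ (Q : Type u) [Group Q], Subgroup Q :=
  fun Q _ => commonIn (baumannSubgroupOf p (⊤ : Subgroup Q))

theorem isCharPFunctor_kFunctor (p : ℕ) [Fact p.Prime] : IsCharPFunctor.{u} p (kFunctor p) := by
  constructor
  · intro Q _ _ hQ _
    exact commonIn_ne_bot (baumann_ne_bot (hQ.to_subgroup ⊤) top_ne_bot)
  · intro Q R _ _ _ _ φ
    rw [kFunctor, kFunctor, ← commonIn_map φ.toMonoidHom φ.injective,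
      ← CfsgLib.TwoSubgroup16.baumannSubgroupOf_map φ.toMonoidHom φ.injective,
      Subgroup.map_top_of_surjective _ φ.surjective]

theorem induced_kFunctor (p : ℕ) {X : Type u} [Group X] (T : Subgroup X) :
    inducedFunctor (G := X) (kFunctor p) T = commonIn (baumannSubgroupOf p T) := by
  rw [inducedFunctor, kFunctor, ← commonIn_map T.subtype T.subtype_injective,
    ← CfsgLib.TwoSubgroup16.baumannSubgroupOf_map T.subtype T.subtype_injective, ← MonoidHom.range_eq_map,
    Subgroup.range_subtype]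

end CfsgLib.TransferThree23
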