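import Cfsg.Agent.TransferThree23.Conf

/-!
Quadratic action of the far module of a critical path on every chief factor in the core of its first vertex.
-/

set_option autoImplicit false

open scoped commutatorElement
open CfsgLib.PushingUp44

namespace CfsgLib.TransferThree23

theorem quad_identity {A : Type*} [AddCommGroup A] (θ θi f : A →+ A) (hi : ∀ a, θ (θi a) = a)
    (hN : ∀ a, θ (θ a - a) = θ a - a) (v : A) :
    θ (f v - θ (f (θi v)) + θ (θ (f (θi (θi v)))) - θ (f (θi v))) =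
        f v - θ (f (θi v)) + θ (θ (f (θi (θi v)))) - θ (f (θi v)) ∧
      (θ (f v) = f v → θ (θ (f (θi v))) = θ (f (θi v)) →
        f v - θ (f (θi v)) + θ (θ (f (θi (θi v)))) - θ (f (θi v)) = 0) := by
  have hinj : Function.Injective θ := by
    refine (injective_iff_map_eq_zero θ).2 fun d hd => ?_
    have h := hN d
    rw [hd, zero_sub, map_neg, hd, neg_zero] at h
    exact neg_eq_zero.1 h.symm
  have hθ : ∀ a, θ (θ a) = θ a + θ a - a := fun a => by
    have h := hN a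
    rw [map_sub, sub_eq_iff_eq_add] at h
    rw [h]; abel
  have hi' : ∀ a, θi a = a + a - θ a := fun a => hinj (by
    rw [hi, map_sub, map_add, hθ]; abel)
  refine ⟨?_, fun h0 h1 => ?_⟩
  · simp only [hi', map_sub, map_add, hθ]; abel
  · have h2 := hinj h1
    rw [hi', map_sub, map_add, map_sub, map_add, h0, sub_right_inj] at h2
    simp only [hi', map_sub, map_add, hθ, h0, h2]
    abel

theorem quad_mul {B : Type*} [CommGroup B] (θ θi f : B →* B) (hi : ∀ a, θ (θi a) = a)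
    (hN : ∀ a, θ (θ a / a) = θ a / a) (v : B) :
    θ (f v / θ (f (θi v)) * θ (θ (f (θi (θi v)))) / θ (f (θi v))) =
        f v / θ (f (θi v)) * θ (θ (f (θi (θi v)))) / θ (f (θi v)) ∧
      (θ (f v) = f v → θ (θ (f (θi v))) = θ (f (θi v)) →
        f v / θ (f (θi v)) * θ (θ (f (θi (θi v)))) / θ (f (θi v)) = 1) :=
  quad_identity (A := Additive B) (MonoidHom.toAdditive θ) (MonoidHom.toAdditive θi) (MonoidHom.toAdditive f)
    hi hN v

namespace Conf

variable {Γ : Type*} [Group Γ] {ι : Type*} {c : Conf Γ ι}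

/-- The descending series of normal subgroups of the first vertex group. -/
def layer (c : Conf Γ ι) (P : ℕ → c.Vtx) : ℕ → Subgroup Γ
  | 0 => c.Qx (P 0)
  | j + 1 => layer c P j ⊓ ⨅ g : ↥(c.Gx (P 0)), cj (g : Γ) (c.Qx (P (j + 1)))

theorem layer_conj (P : ℕ → c.Vtx) {g : Γ} (hg : g ∈ c.Gx (P 0)) :
    ∀ {j : ℕ} {x : Γ}, x ∈ c.layer P j → g * x * g⁻¹ ∈ c.layer P j := by
  intro j
  induction j with
  | zero => exact fun {x} hx => (Subgroup.mem_normalizer_iff.1 (c.Gx_le_normQ _ hg) x).1 hx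
  | succ j ih =>
    intro x hx
    refine ⟨ih hx.1, Subgroup.mem_iInf.2 fun h => ?_⟩
    have h1 := Subgroup.mem_iInf.1 hx.2 ⟨g⁻¹ * h, mul_mem (inv_mem hg) h.2⟩
    rw [mem_cj] at h1 ⊢
    simpa [mul_assoc] using h1

theorem layer_le_core (P : ℕ → c.Vtx) : ∀ {j : ℕ}, c.layer P j ≤ c.Qx (P 0) := by
  intro j
  induction j with
  | zero => exact le_rfl
  | succ j ih => exact inf_le_left.trans ih

variable {k : ℕ} {P : ℕ → c.Vtx} {E : ℕ → Subgroup Γ}

theorem layer_le_syl (hP : c.IsPath k P E) : ∀ {j : ℕ}, j < k → c.layer P j ≤ E j := by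
  intro j hj
  cases j with
  | zero => exact c.Qx_le_syl (hP 0 hj).syl_left
  | succ j =>
    intro x hx
    have h1 := Subgroup.mem_iInf.1 hx.2 ⟨1, one_mem _⟩
    rw [cj_one] at h1
    exact c.Qx_le_syl (hP (j + 1) hj).syl_left h1

theorem layer_le_cj_syl (hP : c.IsPath k P E) {j : ℕ} (hj : j < k) {g : Γ} (hg : g ∈ c.Gx (P 0)) {x : Γ}
    (hx : x ∈ c.layer P j) : x ∈ cj g (E j) := by
  have h1 := layer_conj (c := c) P (inv_mem hg) hx
  rw [mem_cj]
  exact layer_le_syl hP hj (by simpa using h1)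

variable [Finite Γ]

namespace IsB

/-- Near the end of the path the double commutator falls into the first module. -/
theorem double_comm_near (hk : c.IsB k) (hP : c.IsPath k P E) (hc : ¬ c.Vx (P k) ≤ c.Qx (P 0))
    {j : ℕ} (hj : j + 1 ≤ k) (h2 : 2 * (k - (j + 1)) ≤ k) {q y : Γ} (hq : q ∈ c.layer P j)
    (hy : y ∈ c.Vx (P k)) : ⁅⁅q, y⁆, y⁆ ∈ c.Vx (P 0) := by
  have hpos := hk.pos
  have hqG : q ∈ c.Gx (P (j + 1)) := c.syl_le_Gx (hP j (by omega)).syl_right (layer_le_syl hP (by omega) hq)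
  set z := q * y * q⁻¹ with hz
  have hd : ⁅⁅q, y⁆, y⁆ = ⁅z, y⁆ := by rw [hz]; simp only [commutatorElement_def]; group
  rw [hd]
  have hzV : z ∈ c.Vx (c.act q (P k)) := by rw [Vx_act]; exact conj_mem_cj hy
  rcases hj.eq_or_lt with hjk | hjk
  · have hzk : z ∈ c.Vx (P k) :=
      (Subgroup.mem_normalizer_iff.1 (c.Gx_le_normV _ (hjk ▸ hqG)) y).1 hy
    rw [commute_comm_one (commute_of_le_centralizer (c.Vx_comm _) hzk hy)]
    exact one_mem _
  · set m := k - (j + 1) with hm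
    let R : ℕ → c.Vtx := fun i => if i ≤ m then P (k - i) else c.act q (P (j + 1 + (i - m)))
    let F : ℕ → Subgroup Γ := fun i => if i < m then E (k - 1 - i) else cj q (E (j + 1 + (i - m)))
    have hR : c.IsPath (2 * m) R F := by
      intro i hi
      by_cases him : i < m
      · simp only [R, F, if_pos him.le, if_pos him, if_pos (show i + 1 ≤ m by omega)]
        exact hP.reverse i (by omega)
      · by_cases hie : i = m
        · subst hie
          simp only [R, F, le_refl, if_true, lt_irrefl, if_false, if_neg (show ¬ m + 1 ≤ m by omega),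
            Nat.sub_self, add_zero, show m + 1 - m = 1 by omega, show k - m = j + 1 by omega]
          exact (hP (j + 1) (by omega)).act_right hqG
        · simp only [R, F, if_neg him, if_neg (show ¬ i ≤ m by omega), if_neg (show ¬ i + 1 ≤ m by omega),
            show j + 1 + (i + 1 - m) = j + 1 + (i - m) + 1 by omega]
          exact (hP (j + 1 + (i - m)) (by omega)).act q
    have hR0 : R 0 = P k := by simp [R]
    have hRe : R (2 * m) = c.act q (P k) := by
      simp only [R, if_neg (show ¬ 2 * m ≤ m by omega), show j + 1 + (2 * m - m) = k by omega]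
    rcases h2.eq_or_lt with he | hlt
    · rw [he] at hR hRe
      by_cases hcR : c.Vx (R k) ≤ c.Qx (R 0)
      · rw [hR0, hRe] at hcR
        rw [commute_comm_one (c.commute_Vx hy (hcR hzV)).symm]
        exact one_mem _
      · have h1 := hk.commutator_eq hR hcR
        have h2' := hk.commutator_eq hP.reverse (by simpa using hk.reverse hP hc)
        have hF : F 0 = E (k - 1) := by simp [F, show 0 < m by omega]
        rw [hR0, hRe, hF] at h1
        simp only [Nat.sub_zero, Nat.sub_self] at h2'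
        have h3 : ⁅y, z⁆ ∈ ⁅c.Vx (P k), c.Vx (P 0)⁆ := by
          rw [← h2', h1]
          exact Subgroup.commutator_mem_commutator hy hzV
        rw [Subgroup.commutator_comm] at h3
        have h4 := inv_mem (((hk.commutator_le_inf hP).trans inf_le_left) h3)
        rwa [commutatorElement_inv] at h4
    · have hn : c.Near (2 * m) (P k) (c.act q (P k)) := ⟨R, F, hR, hR0, hRe⟩
      rw [commute_comm_one (hk.commute_near hlt hn hzV hy)]
      exact one_mem _

/-- Near the start of the path the double commutator descends one layer. -/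
theorem double_comm_far (hk : c.IsB k) (hP : c.IsPath k P E) {j : ℕ} (h2 : 2 * (j + 1) < k) {q y : Γ}
    (hq : q ∈ c.layer P j) (hy : y ∈ c.Vx (P k)) (hd : ⁅⁅q, y⁆, y⁆ ∈ c.layer P j) :
    ⁅⁅q, y⁆, y⁆ ∈ c.layer P (j + 1) := by
  have hpos := hk.pos
  set G0 := c.Gx (P 0) with hG0
  have hy0 : y ∈ G0 := c.syl_le_Gx (hP 0 (by omega)).syl_left (hk.le_syl hP hy)
  have hE0 : ∀ {x : Γ}, x ∈ c.layer P j → ∀ {g : Γ}, g ∈ G0 → x ∈ cj g (E j) := fun hx _ hg =>
    layer_le_cj_syl hP (by omega) hg hx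
  refine ⟨hd, Subgroup.mem_iInf.2 fun g => ?_⟩
  set d := ⁅⁅q, y⁆, y⁆ with hddef
  set Ω : Subgroup Γ := ⨆ g : ↥G0, c.Vx (c.act (g : Γ) (P (j + 1))) with hΩ
  have hnear : ∀ g : ↥G0, c.Near (j + 1) (P 0) (c.act (g : Γ) (P (j + 1))) := fun g =>
    hP.near_translate (a := 0) (b := j + 1) (by omega) (by omega) g.2
  have hVΩ : ∀ g : ↥G0, c.Vx (c.act (g : Γ) (P (j + 1))) ≤ Ω := fun g =>
    le_iSup (fun g : ↥G0 => c.Vx (c.act (g : Γ) (P (j + 1)))) g
  have hΩc : Ω ≤ Subgroup.centralizer (Ω : Set Γ) := by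
    refine iSup_le fun g => ?_
    rw [Subgroup.le_centralizer_iff]
    refine iSup_le fun g' a ha => Subgroup.mem_centralizer_iff.2 fun b hb => ?_
    exact (hk.commute_near (by omega) ((hnear g').symm.trans (hnear g)) hb ha).eq
  have hΩG : ∀ x ∈ G0, ∀ a ∈ Ω, x * a * x⁻¹ ∈ Ω := by
    intro x hx a ha
    have hle : cj x Ω ≤ Ω := by
      rw [hΩ, cj_iSup]
      refine iSup_le fun g => ?_
      rw [← Vx_act]
      exact le_trans (le_of_eq (by simp [act, mul_assoc])) (hVΩ ⟨x * g, mul_mem hx g.2⟩)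
    exact hle (conj_mem_cj ha)
  letI : CommGroup ↥Ω :=
    { (inferInstance : Group ↥Ω) with
      mul_comm := fun a b => Subtype.ext (commute_of_le_centralizer hΩc a.2 b.2).eq }
  let cn : ∀ x ∈ G0, ↥Ω →* ↥Ω := fun x hx =>
    MonoidHom.mk' (fun a => ⟨x * a * x⁻¹, hΩG x hx a a.2⟩) fun a b => Subtype.ext (by simp [mul_assoc])
  let θ := cn y hy0
  let θi := cn y⁻¹ (inv_mem hy0)
  have hqG : q ∈ G0 :=
    c.syl_le_Gx (hP 0 (by omega)).syl_left (c.Qx_le_syl (hP 0 (by omega)).syl_left (by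
      exact layer_le_core P hq))
  let f : ↥Ω →* ↥Ω := MonoidHom.mk' (fun a => a / cn q hqG a) fun a b => by
    rw [map_mul, div_mul_div_comm]
  have hi : ∀ a, θ (θi a) = a := fun a => Subtype.ext (by simp [θ, θi, cn, mul_assoc])
  have hN : ∀ a, θ (θ a / a) = θ a / a := by
    intro a
    obtain ⟨a, ha⟩ := a
    suffices h : Commute y (y * a * y⁻¹ * a⁻¹) by
      refine Subtype.ext ?_
      simp only [θ, cn, MonoidHom.mk'_apply, div_eq_mul_inv, Subgroup.coe_mul, Subgroup.coe_inv]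
      rw [h.eq, mul_inv_cancel_right]
    have hgen : ∀ g : ↥G0, ∀ v ∈ c.Vx (c.act (g : Γ) (P (j + 1))), Commute y (y * v * y⁻¹ * v⁻¹) := by
      intro g v hv
      have hn : c.Near (k - (j + 2) + (j + 1)) (P (k - (j + 2))) (c.act (g : Γ) (P (j + 1))) :=
        (by simpa using (hP.near (show 0 ≤ k - (j + 2) by omega) (by omega)).symm :
          c.Near (k - (j + 2)) (P (k - (j + 2))) (P 0)).trans (hnear g)
      have hvG : v ∈ c.Gx (P (k - (j + 1))) := by
        have h1 := hP (k - (j + 2)) (by omega)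
        rw [show k - (j + 2) + 1 = k - (j + 1) by omega] at h1
        exact c.syl_le_Gx h1.syl_right (c.Qx_le_syl h1.syl_left (hk.small (by omega) hn hv))
      have hn1 := hP.near (show k - (j + 1) ≤ k by omega) le_rfl
      have hn2 := hP.near_translate (show k - (j + 1) < k by omega) le_rfl hvG
      have hv' : v * y⁻¹ * v⁻¹ ∈ c.Vx (c.act v (P k)) := by rw [Vx_act]; exact conj_mem_cj (inv_mem hy)
      have h3 : Commute y (v * y⁻¹ * v⁻¹) :=
        (hk.commute_near (by omega) (hn1.symm.trans hn2) hv' hy).symm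
      have h4 := (Commute.refl y).mul_right h3
      rwa [show y * (v * y⁻¹ * v⁻¹) = y * v * y⁻¹ * v⁻¹ by group] at h4
    refine Subgroup.iSup_induction (fun g : ↥G0 => c.Vx (c.act (g : Γ) (P (j + 1))))
      (C := fun a => a ∈ Ω ∧ Commute y (y * a * y⁻¹ * a⁻¹)) ha
      (fun g v hv => ⟨hVΩ g hv, hgen g v hv⟩) ⟨one_mem _, by simp⟩ (fun a b hA hB => ⟨mul_mem hA.1 hB.1, ?_⟩) |>.2
    have hb' : y * b * y⁻¹ * b⁻¹ ∈ Ω := mul_mem (hΩG y hy0 b hB.1) (inv_mem hB.1)
    have hc2 : a * (y * b * y⁻¹ * b⁻¹) * a⁻¹ = y * b * y⁻¹ * b⁻¹ := by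
      rw [(commute_of_le_centralizer hΩc hA.1 hb').eq, mul_inv_cancel_right]
    rw [show y * (a * b) * y⁻¹ * (a * b)⁻¹ =
      y * a * y⁻¹ * a⁻¹ * (a * (y * b * y⁻¹ * b⁻¹) * a⁻¹) by group, hc2]
    exact hA.2.mul_right hB.2
  -- one translate
  set w := c.act (g : Γ) (P (j + 1)) with hw
  set Ew := cj (g : Γ) (E j) with hEw
  have hsyl : c.Syl w Ew := (hP j (by omega)).syl_right.act _
  rw [← Qx_act, ← hw]
  by_contra hdQ
  have hVn : Ew ≤ Subgroup.normalizer (c.Vx w : Set Γ) := (c.syl_le_Gx hsyl).trans (c.Gx_le_normV _)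
  set ρ := ⁅c.Vx w, Ew⁆ with hρ
  have hρV : ρ ≤ c.Vx w := Subgroup.le_normalizer_iff_commutator_le_left.1 hVn
  have hρE := c.syl_comm hsyl
  set q1 := y * q * y⁻¹ with hq1
  set q2 := y * q1 * y⁻¹ with hq2
  have hq1N : q1 ∈ c.layer P j := layer_conj P hy0 hq
  have hq2N : q2 ∈ c.layer P j := layer_conj P hy0 hq1N
  have hdE : d ∈ Ew := hE0 hd g.2
  have hmul : ∀ v ∈ c.Vx w, ∀ a ∈ Ew, ∀ b ∈ Ew, ⁅v, a * b⁆ = ⁅v, a⁆ * ⁅v, b⁆ := by
    intro v hv a ha b hb
    rw [comm_mul_right, ← (commute_of_le_centralizer hρE (Subgroup.commutator_mem_commutator hv hb) ha).eq,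
      mul_inv_cancel_right]
  have hinv : ∀ v ∈ c.Vx w, ∀ a ∈ Ew, ⁅v, a⁻¹⁆ = ⁅v, a⁆⁻¹ := by
    intro v hv a ha
    refine eq_inv_of_mul_eq_one_right ?_
    rw [← hmul v hv a ha a⁻¹ (inv_mem ha), mul_inv_cancel]
    simp [commutatorElement_def]
  have hqd : d = q * q1⁻¹ * q2 * q1⁻¹ := by
    rw [hddef, hq2, hq1]; simp only [commutatorElement_def]; group
  let C0 : ↥Ω → ↥Ω := fun v => f v
  let C1 : ↥Ω → ↥Ω := fun v => θ (f (θi v))
  let C2 : ↥Ω → ↥Ω := fun v => θ (θ (f (θi (θi v))))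
  have hC0 : ∀ v : ↥Ω, (C0 v : Γ) = ⁅(v : Γ), q⁆ := fun v => by
    simp only [C0, f, cn, MonoidHom.mk'_apply, div_eq_mul_inv, Subgroup.coe_mul, Subgroup.coe_inv,
      commutatorElement_def]
    group
  have hC1 : ∀ v : ↥Ω, (C1 v : Γ) = ⁅(v : Γ), q1⁆ := fun v => by
    simp only [C1, f, θ, θi, cn, MonoidHom.mk'_apply, div_eq_mul_inv, Subgroup.coe_mul, Subgroup.coe_inv,
      commutatorElement_def, hq1]
    group
  have hC2 : ∀ v : ↥Ω, (C2 v : Γ) = ⁅(v : Γ), q2⁆ := fun v => by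
    simp only [C2, f, θ, θi, cn, MonoidHom.mk'_apply, div_eq_mul_inv, Subgroup.coe_mul, Subgroup.coe_inv,
      commutatorElement_def, hq1, hq2]
    group
  have hval : ∀ v : ↥Ω, (v : Γ) ∈ c.Vx w → ((C0 v / C1 v * C2 v / C1 v : ↥Ω) : Γ) = ⁅(v : Γ), d⁆ := by
    intro v hv
    have e0 := hE0 hq g.2
    have e1 := hE0 hq1N g.2
    have e2 := hE0 hq2N g.2
    rw [hqd, hmul _ hv _ (mul_mem (mul_mem e0 (inv_mem e1)) e2) _ (inv_mem e1),
      hmul _ hv _ (mul_mem e0 (inv_mem e1)) _ e2, hmul _ hv _ e0 _ (inv_mem e1), hinv _ hv _ e1]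
    simp only [div_eq_mul_inv, Subgroup.coe_mul, Subgroup.coe_inv, hC0, hC1, hC2]
  let χ : ↥(c.Vx w) →* Γ := MonoidHom.mk' (fun v => ⁅(v : Γ), d⁆) fun a b => by
    rw [Subgroup.coe_mul, comm_mul_left]
    have hb : ⁅(b : Γ), d⁆ ∈ c.Vx w := hρV (Subgroup.commutator_mem_commutator b.2 hdE)
    have ha : ⁅(a : Γ), d⁆ ∈ c.Vx w := hρV (Subgroup.commutator_mem_commutator a.2 hdE)
    rw [(commute_of_le_centralizer (c.Vx_comm w) a.2 hb).eq, mul_inv_cancel_right,
      (commute_of_le_centralizer (c.Vx_comm w) hb ha).eq]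
  have hker : χ.ker = (c.Vx w ⊓ Subgroup.centralizer ({d} : Set Γ)).subgroupOf (c.Vx w) := by
    ext v
    rw [MonoidHom.mem_ker, Subgroup.mem_subgroupOf]
    constructor
    · intro h
      exact ⟨v.2, Subgroup.mem_centralizer_singleton_iff.2 (commute_of_comm_one h).eq⟩
    · intro h
      exact commute_comm_one (Subgroup.mem_centralizer_singleton_iff.1 h.2)
  have hbound : c.qx w ≤ Nat.card χ.range := by
    have h1 := c.syl_bound hsyl hdE hdQ
    rw [Subgroup.relIndex, ← hker, Subgroup.index_ker] at h1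
    exact h1
  have hrange : χ.range = ρ := by
    refine Subgroup.eq_of_le_of_card_ge ?_ ((c.syl_root hsyl).trans hbound)
    rintro _ ⟨v, rfl⟩
    exact Subgroup.commutator_mem_commutator v.2 hdE
  have hfix : ∀ r ∈ ρ, ∀ hr : r ∈ Ω, θ ⟨r, hr⟩ = ⟨r, hr⟩ := by
    intro r hr hrΩ
    rw [← hrange] at hr
    obtain ⟨v, hv⟩ := hr
    have h := (quad_mul θ θi f hi hN ⟨(v : Γ), hVΩ g v.2⟩).1
    have e : ((C0 ⟨(v : Γ), hVΩ g v.2⟩ / C1 _ * C2 _ / C1 _ : ↥Ω) : Γ) = r :=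
      (hval ⟨(v : Γ), hVΩ g v.2⟩ v.2).trans hv
    have e' := Subtype.ext (a1 := (C0 ⟨(v : Γ), hVΩ g v.2⟩ / C1 _ * C2 _ / C1 _ : ↥Ω)) (a2 := ⟨r, hrΩ⟩) e
    rw [← e']
    exact h
  have hone : χ.range = ⊥ := by
    rw [eq_bot_iff]
    rintro _ ⟨v, rfl⟩
    rw [Subgroup.mem_bot]
    set v' : ↥Ω := ⟨(v : Γ), hVΩ g v.2⟩ with hv'
    have h0 : θ (C0 v') = C0 v' :=
      hfix _ (by rw [hC0]; exact Subgroup.commutator_mem_commutator v.2 (hE0 hq g.2)) (C0 v').2
    have h1 : θ (C1 v') = C1 v' :=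
      hfix _ (by rw [hC1]; exact Subgroup.commutator_mem_commutator v.2 (hE0 hq1N g.2)) (C1 v').2
    have h := (quad_mul θ θi f hi hN v').2 h0 h1
    show ⁅(v : Γ), d⁆ = 1
    rw [← hval v' v.2]
    exact congrArg Subtype.val h
  rw [hone, Subgroup.card_bot] at hbound
  exact absurd (c.one_lt w.1) (not_lt.2 hbound)

/-- The far module of a critical path acts quadratically on each chief factor inside the first core. -/
theorem quad (hk : c.IsB k) (hP : c.IsPath k P E) (hc : ¬ c.Vx (P k) ≤ c.Qx (P 0)) {y : Γ}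
    (hy : y ∈ c.Vx (P k)) {U W : Subgroup Γ} (hWU : W ≤ U) (hUQ : U ≤ c.Qx (P 0))
    (hUn : c.Gx (P 0) ≤ Subgroup.normalizer (U : Set Γ)) (hWn : c.Gx (P 0) ≤ Subgroup.normalizer (W : Set Γ))
    (hchief : ∀ K : Subgroup Γ, W ≤ K → K ≤ U → c.Gx (P 0) ≤ Subgroup.normalizer (K : Set Γ) → K = W ∨ K = U) :
    ∀ u ∈ U, ⁅⁅u, y⁆, y⁆ ∈ W := by
  have hpos := hk.pos
  set G0 := c.Gx (P 0) with hG0
  have hy0 : y ∈ G0 := c.syl_le_Gx (hP 0 (by omega)).syl_left (hk.le_syl hP hy)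
  have hQG : c.Qx (P 0) ≤ G0 :=
    (c.Qx_le_syl (hP 0 (by omega)).syl_left).trans (c.syl_le_Gx (hP 0 (by omega)).syl_left)
  have hUG : U ≤ G0 := hUQ.trans hQG
  have hUy : ∀ u ∈ U, ⁅⁅u, y⁆, y⁆ ∈ U := by
    intro u hu
    have h1 : ∀ u ∈ U, ⁅u, y⁆ ∈ U := fun u hu => by
      rw [commutatorElement_def, show u * y * u⁻¹ * y⁻¹ = u * (y * u⁻¹ * y⁻¹) by group]
      exact mul_mem hu ((Subgroup.mem_normalizer_iff.1 (hUn hy0) _).1 (inv_mem hu))
    exact h1 _ (h1 _ hu)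
  have hnW : ∀ x ∈ G0, ∀ a ∈ W, x * a * x⁻¹ ∈ W := fun x hx a ha =>
    (Subgroup.mem_normalizer_iff.1 (hWn hx) a).1 ha
  -- a good set containing a supplement of `W` in `U` is everything
  have key : ∀ N : Subgroup Γ, (∀ x ∈ G0, ∀ a ∈ N, x * a * x⁻¹ ∈ N) →
      (∀ n ∈ U ⊓ N, ⁅⁅n, y⁆, y⁆ ∈ W) → U ⊓ N ≤ W ∨ ∀ u ∈ U, ⁅⁅u, y⁆, y⁆ ∈ W := by
    intro N hN hgood
    have hn : G0 ≤ Subgroup.normalizer ((U ⊓ N : Subgroup Γ) : Set Γ) := by
      refine le_normalizer_of_conj_le fun x hx z hz => ?_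
      rw [mem_cj] at hz
      have h1 := (Subgroup.mem_normalizer_iff.1 (hUn hx) _).1 hz.1
      have h2 := hN x hx _ hz.2
      rw [show x * (x⁻¹ * z * x) * x⁻¹ = z by group] at h1 h2
      exact ⟨h1, h2⟩
    rcases hchief ((U ⊓ N) ⊔ W) le_sup_right (sup_le inf_le_left hWU)
      ((le_inf hn hWn).trans (Subgroup.normalizer_inf_normalizer_le_normalizer_sup _ _)) with e | e
    · exact Or.inl (le_sup_left.trans e.le)
    refine Or.inr fun u hu => ?_
    rw [← e] at hu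
    obtain ⟨n, hn', a, ha, rfl⟩ :=
      exists_mul_of_mem_sup ((inf_le_left.trans hUG).trans hWn) hu
    have hnG : n ∈ G0 := hUG hn'.1
    have haW : ⁅a, y⁆ ∈ W := by
      rw [commutatorElement_def, show a * y * a⁻¹ * y⁻¹ = a * (y * a⁻¹ * y⁻¹) by group]
      exact mul_mem ha (hnW y hy0 _ (inv_mem ha))
    rw [comm_mul_left]
    have hw'W : n * ⁅a, y⁆ * n⁻¹ ∈ W := hnW n hnG _ haW
    have hw'y : ⁅n * ⁅a, y⁆ * n⁻¹, y⁆ ∈ W := by
      rw [commutatorElement_def (n * ⁅a, y⁆ * n⁻¹) y, show ∀ t : Γ, t * y * t⁻¹ * y⁻¹ = t * (y * t⁻¹ * y⁻¹)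
        from fun t => by group]
      exact mul_mem hw'W (hnW y hy0 _ (inv_mem hw'W))
    rw [comm_mul_left]
    exact mul_mem (mul_mem (mul_mem hw'W (hgood n hn')) (inv_mem hw'W)) hw'y
  have main : ∀ m j : ℕ, j + 1 + m = k → ∀ n ∈ U ⊓ c.layer P j, ⁅⁅n, y⁆, y⁆ ∈ W := by
    intro m
    induction m using Nat.strong_induction_on with
    | _ m ih =>
    intro j hjm n hn
    by_cases hsmall : 2 * (k - (j + 1)) ≤ k
    · have hd := hk.double_comm_near hP hc (by omega) hsmall hn.2 hy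
      have hgood : ∀ v ∈ U ⊓ c.Vx (P 0), ⁅⁅v, y⁆, y⁆ ∈ W := fun v hv => by
        have h1 : ⁅v, y⁆ ∈ c.Vx (P k) :=
          ((hk.commutator_le_inf hP).trans inf_le_right) (Subgroup.commutator_mem_commutator hv.2 hy)
        rw [commute_comm_one (commute_of_le_centralizer (c.Vx_comm _) h1 hy)]
        exact one_mem _
      rcases key (c.Vx (P 0)) (fun x hx a ha => (Subgroup.mem_normalizer_iff.1 (c.Gx_le_normV _ hx) a).1 ha)
        hgood with h | h
      · exact h ⟨hUy n hn.1, hd⟩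
      · exact h n hn.1
    · have h1 : ∀ x ∈ c.layer P j, ⁅x, y⁆ ∈ c.layer P j := fun x hx => by
        rw [commutatorElement_def, show x * y * x⁻¹ * y⁻¹ = x * (y * x⁻¹ * y⁻¹) by group]
        exact mul_mem hx (layer_conj P hy0 (inv_mem hx))
      have hd := hk.double_comm_far hP (by omega) hn.2 hy (h1 _ (h1 _ hn.2))
      rcases key (c.layer P (j + 1)) (fun x hx a ha => layer_conj P hx ha)
        (ih (m - 1) (by omega) (j + 1) (by omega)) with h | h
      · exact h ⟨hUy n hn.1, hd⟩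
      · exact h n hn.1
  exact fun u hu => main (k - 1) 0 (by omega) u ⟨hu, hUQ hu⟩

end IsB

end Conf

end CfsgLib.TransferThree23
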