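import Mathlib

/-!
Matrices of determinant one on a plane fixing a nonzero vector.
-/

set_option autoImplicit false

open scoped MatrixGroups

namespace CfsgLib.TransferThree23

variable {F : Type*} [Field F] {e : Fin 2 → F}

theorem exists_smul_of_cross (he : e ≠ 0) {w : Fin 2 → F} (h : w 0 * e 1 = w 1 * e 0) : ∃ c : F, w = c • e := by
  by_cases h0 : e 0 = 0
  · have h1 : e 1 ≠ 0 := fun h1 => he (funext fun i => by fin_cases i <;> assumption)
    rw [h0, mul_zero] at h
    refine ⟨w 1 / e 1, funext fun i => ?_⟩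
    fin_cases i
    · simpa [h0] using (mul_eq_zero.1 h).resolve_right h1
    · simp [h1]
  · refine ⟨w 0 / e 0, funext fun i => ?_⟩
    fin_cases i
    · simp [h0]
    · simp only [Fin.mk_one, Pi.smul_apply, smul_eq_mul]
      field_simp
      linear_combination -h

/-- The image of `A - 1` lies on the fixed line. -/
theorem exists_smul_sub (he : e ≠ 0) {A : SL(2, F)} (hA : (A : Matrix (Fin 2) (Fin 2) F).mulVec e = e)
    (v : Fin 2 → F) : ∃ c : F, (A : Matrix (Fin 2) (Fin 2) F).mulVec v - v = c • e := by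
  refine exists_smul_of_cross he ?_
  have hd := A.2
  rw [Matrix.det_fin_two] at hd
  have e0 := congrFun hA 0
  have e1 := congrFun hA 1
  simp only [Matrix.mulVec, dotProduct, Fin.sum_univ_two] at e0 e1
  simp only [Matrix.mulVec, dotProduct, Fin.sum_univ_two, Pi.sub_apply]
  linear_combination (A.1 1 0 * v 0 + A.1 1 1 * v 1) * e0 - (A.1 0 0 * v 0 + A.1 0 1 * v 1) * e1 +
    (v 0 * e 1 - v 1 * e 0) * hd

/-- A nontrivial such matrix fixes only the line. -/
theorem exists_smul_fixed (he : e ≠ 0) {A : SL(2, F)} (hA : (A : Matrix (Fin 2) (Fin 2) F).mulVec e = e)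
    (h1 : A ≠ 1) {v : Fin 2 → F} (hv : (A : Matrix (Fin 2) (Fin 2) F).mulVec v = v) : ∃ c : F, v = c • e := by
  refine exists_smul_of_cross he ?_
  by_contra hd
  apply h1
  have hd' : v 0 * e 1 - v 1 * e 0 ≠ 0 := sub_ne_zero.2 hd
  have e0 := congrFun hA 0
  have e1 := congrFun hA 1
  have v0 := congrFun hv 0
  have v1 := congrFun hv 1
  simp only [Matrix.mulVec, dotProduct, Fin.sum_univ_two] at e0 e1 v0 v1
  ext i j
  fin_cases i <;> fin_cases j <;> simp
  · refine mul_right_cancel₀ hd' ?_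
    linear_combination e 1 * v0 - v 1 * e0
  · refine mul_right_cancel₀ hd' ?_
    linear_combination v 0 * e0 - e 0 * v0
  · refine mul_right_cancel₀ hd' ?_
    linear_combination e 1 * v1 - v 1 * e1
  · refine mul_right_cancel₀ hd' ?_
    linear_combination v 0 * e1 - e 0 * v1

/-- The stabiliser of a vector. -/
def stabVec (e : Fin 2 → F) : Subgroup SL(2, F) where
  carrier := {A | (A : Matrix (Fin 2) (Fin 2) F).mulVec e = e}
  one_mem' := by
    show ((1 : SL(2, F)) : Matrix (Fin 2) (Fin 2) F).mulVec e = e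
    rw [Matrix.SpecialLinearGroup.coe_one, Matrix.one_mulVec]
  mul_mem' := fun {A B} hA hB => by
    show ((A * B : SL(2, F)) : Matrix (Fin 2) (Fin 2) F).mulVec e = e
    rw [Matrix.SpecialLinearGroup.coe_mul, ← Matrix.mulVec_mulVec, hB, hA]
  inv_mem' := fun {A} hA => by
    show ((A⁻¹ : SL(2, F)) : Matrix (Fin 2) (Fin 2) F).mulVec e = e
    conv_lhs => arg 2; rw [← hA]
    rw [Matrix.mulVec_mulVec, ← Matrix.SpecialLinearGroup.coe_mul, inv_mul_cancel,
      Matrix.SpecialLinearGroup.coe_one, Matrix.one_mulVec]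

theorem mem_stabVec {A : SL(2, F)} : A ∈ stabVec e ↔ (A : Matrix (Fin 2) (Fin 2) F).mulVec e = e := Iff.rfl

theorem isPGroup_stabVec {p : ℕ} [CharP F p] (he : e ≠ 0) : IsPGroup p (stabVec e) := by
  intro A
  refine ⟨1, Subtype.ext (Subtype.ext ?_)⟩
  rw [pow_one, SubgroupClass.coe_pow, Matrix.SpecialLinearGroup.coe_pow]
  refine Matrix.ext_of_mulVec_single fun i => ?_
  set v : Fin 2 → F := Pi.single i 1
  obtain ⟨c, hc⟩ := exists_smul_sub he A.2 v
  have key : ∀ m : ℕ, ((A.1 : Matrix (Fin 2) (Fin 2) F) ^ m).mulVec v = v + ((m : F) * c) • e := by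
    intro m
    induction m with
    | zero => simp
    | succ m ih =>
      rw [pow_succ', ← Matrix.mulVec_mulVec, ih, Matrix.mulVec_add, Matrix.mulVec_smul, A.2,
        eq_add_of_sub_eq hc, Nat.cast_succ, add_mul, one_mul, add_smul]
      abel
  rw [key, CharP.cast_eq_zero, zero_mul, zero_smul, add_zero]
  exact (Matrix.one_mulVec v).symm

end CfsgLib.TransferThree23
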